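import Cfsg.Agent.H408.Pron.PosGU

/-!
# S2223: block diagonal unitary matrices over the quaternions (helper36, task 4217)

* `bd : (∀ c, GU (m c) F) →* GU (Σ c, m c) F`;
* `Phi e : (∀ c : Quotient e, GU {l // ⟦l⟧ = c} F) →* GU n F` with range the matrices `x` with `x k l = 0` for
  `¬ e k l`;
* `tau e i` : the diagonal matrix with entries `-1` on the class of `i`.
-/

set_option autoImplicit false
set_option linter.unusedSectionVars false

namespace Cfsg.Agent.H36.Hall

open Quaternion Matrix Equiv
open Cfsg.Agent.H158.PronQ Cfsg.Agent.H158.PronMat Cfsg.Agent.H158.PronMono Cfsg.Agent.H158.PronFrame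
open Cfsg.Agent.H158.PronAvg Cfsg.Agent.H408.Pron.PosGU

variable {F : Type*} [Field F]

section bd

variable {C : Type*} [Fintype C] [DecidableEq C] {m : C → Type*} [∀ c, Fintype (m c)] [∀ c, DecidableEq (m c)]

/-- Block diagonal matrices. -/
def bd : (∀ c, GU (m c) F) →* GU (Σ c, m c) F where
  toFun x := ⟨Matrix.blockDiagonal' fun c => (x c).1, by
    rw [mem_GU, Matrix.blockDiagonal'_conjTranspose, ← Matrix.blockDiagonal'_mul, ← Matrix.blockDiagonal'_mul]
    constructor
    · rw [← Matrix.blockDiagonal'_one]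
      congr 1
      funext c
      exact star_mul_coe (x c)
    · rw [← Matrix.blockDiagonal'_one]
      congr 1
      funext c
      exact coe_mul_star (x c)⟩
  map_one' := Subtype.ext (Matrix.blockDiagonal'_one)
  map_mul' x y := by
    apply Subtype.ext
    show Matrix.blockDiagonal' (fun c => (x c).1 * (y c).1) = _
    rw [Matrix.blockDiagonal'_mul]
    rfl

theorem bd_injective : Function.Injective (bd : (∀ c, GU (m c) F) →* GU (Σ c, m c) F) := by
  intro x y h
  have h1 : Matrix.blockDiagonal' (fun c => (x c).1) = Matrix.blockDiagonal' fun c => (y c).1 := congrArg Subtype.val h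
  have h2 := Matrix.blockDiagonal'_injective h1
  funext c
  exact Subtype.ext (congrFun h2 c)

theorem mem_range_bd {g : GU (Σ c, m c) F} (hg : ∀ a b : Σ c, m c, a.1 ≠ b.1 → g.1 a b = 0) :
    g ∈ (bd : (∀ c, GU (m c) F) →* GU (Σ c, m c) F).range := by
  have h0 : Matrix.blockDiagonal' (fun c => Matrix.blockDiag' g.1 c) = g.1 := by
    ext1 a b
    obtain ⟨c, i⟩ := a
    obtain ⟨d, j⟩ := b
    by_cases h : c = d
    · subst h
      rw [Matrix.blockDiagonal'_apply_eq]
      rfl
    · rw [Matrix.blockDiagonal'_apply_ne _ _ _ h, hg _ _ h]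
  have h1 := star_mul_coe g
  have h2 := coe_mul_star g
  rw [← h0, Matrix.blockDiagonal'_conjTranspose, ← Matrix.blockDiagonal'_mul, ← Matrix.blockDiagonal'_one] at h1 h2
  have h3 := fun c => congrFun (Matrix.blockDiagonal'_injective h1) c
  have h4 := fun c => congrFun (Matrix.blockDiagonal'_injective h2) c
  refine ⟨fun c => ⟨Matrix.blockDiag' g.1 c, mem_GU.2 ⟨h3 c, h4 c⟩⟩, Subtype.ext h0⟩

end bd

section Phi

variable {n : Type*} [Fintype n] [DecidableEq n] (e : Setoid n)

open Classical in
/-- the group of the parts -/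
abbrev Parts (F : Type*) [Field F] {n : Type*} [Fintype n] [DecidableEq n] (e : Setoid n) : Type _ :=
  ∀ c : Quotient e, GU {l : n // (Quotient.mk e l : Quotient e) = c} F

open Classical in
/-- The embedding of the group of the parts. -/
noncomputable def Phi : Parts F e →* GU n F :=
  (reGU (F := F) (Equiv.sigmaFiberEquiv (Quotient.mk e))).comp bd

open Classical in
theorem reGU_injective {m n : Type*} [Fintype m] [DecidableEq m] [Fintype n] [DecidableEq n] (f : m ≃ n) :
    Function.Injective (reGU (F := F) f) := by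
  intro x y h
  apply Subtype.ext
  ext1 a b
  have h1 := congrFun (congrFun (congrArg Subtype.val h) (f a)) (f b)
  have h2 : x.1 (f.symm (f a)) (f.symm (f b)) = y.1 (f.symm (f a)) (f.symm (f b)) := h1
  rwa [f.symm_apply_apply, f.symm_apply_apply] at h2

theorem Phi_injective : Function.Injective (Phi (F := F) e) := by
  classical
  exact (reGU_injective _).comp bd_injective

theorem Phi_apply (x : Parts F e) {k l : n} (h : ¬ e k l) : (Phi e x).1 k l = 0 := by
  classical
  show (Matrix.blockDiagonal' fun c => (x c).1) ((Equiv.sigmaFiberEquiv (Quotient.mk e)).symm k)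
    ((Equiv.sigmaFiberEquiv (Quotient.mk e)).symm l) = 0
  apply Matrix.blockDiagonal'_apply_ne
  exact fun h1 => h (Quotient.exact h1)

theorem mem_range_Phi {g : GU n F} : g ∈ (Phi (F := F) e).range ↔ ∀ k l, ¬ e k l → g.1 k l = 0 := by
  classical
  constructor
  · rintro ⟨x, rfl⟩ k l h
    exact Phi_apply e x h
  · intro hg
    let f := Equiv.sigmaFiberEquiv (Quotient.mk e)
    have h1 : reGU (F := F) f.symm g ∈ (bd : Parts F e →* _).range := by
      apply mem_range_bd
      rintro ⟨c, i⟩ ⟨d, j⟩ hab
      show g.1 (f.symm.symm ⟨c, i⟩) (f.symm.symm ⟨d, j⟩) = 0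
      apply hg
      intro h2
      apply hab
      obtain ⟨i, rfl⟩ := i
      obtain ⟨j, rfl⟩ := j
      exact Quotient.sound h2
    obtain ⟨x, hx⟩ := h1
    refine ⟨x, ?_⟩
    show reGU f (bd x) = g
    rw [hx]
    apply Subtype.ext
    ext1 a b
    show g.1 (f.symm.symm (f.symm a)) (f.symm.symm (f.symm b)) = g.1 a b
    rw [Equiv.symm_symm, f.apply_symm_apply, f.apply_symm_apply]

open Classical in
/-- `-1` on the class of `i` -/
noncomputable def tau (F : Type*) [Field F] {n : Type*} [Fintype n] [DecidableEq n] (e : Setoid n) (i : n) : GU n F :=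
  D fun l => if e i l then nu else 1

theorem comm_tau_of_blk {g : GU n F} (hg : ∀ k l, ¬ e k l → g.1 k l = 0) (i : n) : g * tau F e i = tau F e i * g := by
  classical
  apply Subtype.ext
  ext1 a b
  show (g.1 * Matrix.diagonal fun l => (((if e i l then nu else 1 : U F)) : ℍ[F])) a b =
    ((Matrix.diagonal fun l => (((if e i l then nu else 1 : U F)) : ℍ[F])) * g.1) a b
  rw [Matrix.mul_diagonal, Matrix.diagonal_mul]
  by_cases hab : e a b
  · have h1 : (if e i a then (nu : U F) else 1) = if e i b then nu else 1 := by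
      by_cases h2 : e i a
      · rw [if_pos h2, if_pos (e.trans' h2 hab)]
      · rw [if_neg h2, if_neg fun h3 => h2 (e.trans' h3 (e.symm' hab))]
    rw [h1]
    split_ifs
    · rw [coe_nu, mul_neg, neg_mul, mul_one, one_mul]
    · rw [OneMemClass.coe_one, mul_one, one_mul]
  · rw [hg a b hab, zero_mul, mul_zero]

theorem blk_of_comm_tau (h2 : (2 : F) ≠ 0) {g : GU n F} (hg : ∀ i, g * tau F e i = tau F e i * g) (k l : n)
    (hkl : ¬ e k l) : g.1 k l = 0 := by
  classical
  have h1 := congrFun (congrFun (congrArg Subtype.val (hg k)) k) l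
  have h3 : (g.1 * Matrix.diagonal fun l => (((if e k l then nu else 1 : U F)) : ℍ[F])) k l =
    ((Matrix.diagonal fun l => (((if e k l then nu else 1 : U F)) : ℍ[F])) * g.1) k l := h1
  rw [Matrix.mul_diagonal, Matrix.diagonal_mul, if_pos (e.refl' k), if_neg hkl, coe_nu, OneMemClass.coe_one, mul_one,
    neg_mul, one_mul] at h3
  apply two_ne h2
  rw [two_mul]
  nth_rewrite 1 [h3]
  exact neg_add_cancel _

end Phi

section rep

variable {n : Type*} [Fintype n] [DecidableEq n]

/-- the diagonal matrices `±1` in a representation -/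
theorem rep_D {k : Type*} [Field k] {V : Type*} [AddCommGroup V] [Module k V] (ρ : GU n F →* (V →ₗ[k] V))
    {M : n → Submodule k V} (hneg : ∀ l, ∀ v ∈ M l, ρ (Rj l nu) v = -v)
    (hpos : ∀ j l, j ≠ l → ∀ v ∈ M l, ρ (Rj j nu) v = v) (s : Finset n) (l : n) {v : V} (hv : v ∈ M l) :
    ρ (D fun c => if c ∈ s then nu else 1) v = if l ∈ s then -v else v := by
  induction s using Finset.induction_on with
  | empty =>
    have h1 : (fun c : n => if c ∈ (∅ : Finset n) then (nu : U F) else 1) = 1 := by
      funext c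
      rw [if_neg (Finset.notMem_empty c)]
      rfl
    rw [h1, map_one, map_one, Module.End.one_apply, if_neg (Finset.notMem_empty l)]
  | insert a s ha ih =>
    have h1 : (D fun c => if c ∈ insert a s then (nu : U F) else 1) =
        Rj a nu * D fun c => if c ∈ s then nu else 1 := by
      rw [Rj_eq_D, ← map_mul]
      congr 1
      funext c
      show _ = (if c = a then (nu : U F) else 1) * if c ∈ s then nu else 1
      by_cases hc : c = a
      · subst hc
        rw [if_pos (Finset.mem_insert_self _ _), if_pos rfl, if_neg ha, mul_one]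
      · rw [if_neg hc, one_mul]
        by_cases hcs : c ∈ s
        · rw [if_pos hcs, if_pos (Finset.mem_insert_of_mem hcs)]
        · rw [if_neg hcs, if_neg fun h => (Finset.mem_insert.1 h).elim hc hcs]
    rw [h1, map_mul, Module.End.mul_apply, ih]
    by_cases hl : l = a
    · subst hl
      rw [if_neg ha, if_pos (Finset.mem_insert_self _ _), hneg l v hv]
    · by_cases hls : l ∈ s
      · rw [if_pos hls, if_pos (Finset.mem_insert_of_mem hls), map_neg, hpos a l (Ne.symm hl) v hv]
      · rw [if_neg hls, if_neg fun h => (Finset.mem_insert.1 h).elim hl hls, hpos a l (Ne.symm hl) v hv]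

theorem rep_tau {k : Type*} [Field k] {V : Type*} [AddCommGroup V] [Module k V] (ρ : GU n F →* (V →ₗ[k] V))
    {M : n → Submodule k V} (hneg : ∀ l, ∀ v ∈ M l, ρ (Rj l nu) v = -v)
    (hpos : ∀ j l, j ≠ l → ∀ v ∈ M l, ρ (Rj j nu) v = v) (e : Setoid n) (i l : n) {v : V} (hv : v ∈ M l) :
    (e i l → ρ (tau F e i) v = -v) ∧ (¬ e i l → ρ (tau F e i) v = v) := by
  classical
  have h1 := rep_D ρ hneg hpos (Finset.univ.filter fun c => e i c) l hv
  simp only [Finset.mem_filter, Finset.mem_univ, true_and] at h1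
  constructor
  · intro h
    rw [if_pos h] at h1
    exact h1
  · intro h
    rw [if_neg h] at h1
    exact h1

end rep

/-- elements of the normalizer of the wreath product -/
theorem norm_blk {n : Type*} [Fintype n] [DecidableEq n] (h2 : (2 : F) ≠ 0) (T : Sylow 2 (Perm n)) {g : GU n F}
    (hg : g ∈ Subgroup.normalizer ((SG (Q8 F) (T : Subgroup (Perm n)) : Subgroup (GU n F)) : Set (GU n F))) (e : Setoid n) :
    ∃ b ∈ (Phi (F := F) e).range, ∃ s ∈ SG (Q8 F) (T : Subgroup (Perm n)), g = b * s := by
  obtain ⟨σ, hσT, hσ, -⟩ := norm_mono h2 T ⟨uI, uI_mem, by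
    apply Subtype.ext; show (qi : ℍ[F]) * qi = -1; exact qi_mul_qi⟩ hg
  refine ⟨g * (PM σ)⁻¹, ?_, PM σ, PM_mem _ hσT, by group⟩
  rw [mem_range_Phi]
  intro k l hkl
  have h1 : Mono ((PM σ : GU n F)⁻¹).1 σ⁻¹ := by
    have := (PM_mono (F := F) σ).star
    rwa [← coe_inv_GU] at this
  have h3 : Mono (g * (PM σ)⁻¹).1 (σ * σ⁻¹) := hσ.mul h1
  rw [mul_inv_cancel] at h3
  apply h3
  intro h
  rw [Equiv.Perm.one_apply] at h
  rw [h] at hkl
  exact hkl (e.refl' l)

end Cfsg.Agent.H36.Hall
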