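import Cfsg.Agent.H36.Hall.Refl
import Cfsg.Agent.H408.Hall.MTwo
import Cfsg.Agent.H563.RV.Sp

/-!
# S2223: the coordinate involutions lie in the 2-core of a `p'`-overgroup of the Sylow 2-subgroup (helper36)
-/

set_option autoImplicit false
set_option linter.unusedSectionVars false

namespace Cfsg.Agent.H36.Hall

open Quaternion Matrix Equiv Polynomial Module
open Cfsg.Agent.H158.PronQ Cfsg.Agent.H158.PronMat Cfsg.Agent.H158.PronMono Cfsg.Agent.H158.PronFrame
open Cfsg.Agent.H158.PronAvg Cfsg.Agent.H408.Pron.PosGU Cfsg.Agent.H408.Pron.Gen Cfsg.Agent.H158.PronM2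
open Cfsg.Agent.H575.Hall Cfsg.Agent.H125.Hall

/-- the symplectic group in quaternionic form -/
local notation "GUq" => Cfsg.Agent.H158.PronMat.GU

section

variable {F : Type*} [Field F] {K : Type*} [Field K] [Algebra F K] {n : Type*} [Fintype n] [DecidableEq n] {a b : F}

theorem uIJ : (uI : U F) * uJ = nu * (uJ * uI) := by
  apply Subtype.ext
  show (qi : ℍ[F]) * qj = -1 * (qj * qi)
  rw [qi_mul_qj, qj_mul_qi, neg_mul_neg, one_mul]

/-- the rank-one condition -/
theorem rank_one (h2 : (2 : K) ≠ 0) (hab : a * a + b * b = -1) {i : K} (hi : i * i = -1) (c : n) :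
    finrank K (LinearMap.range ((rho K hab (Rj c uI : GUq n F) - 1) * (rho K hab (Rj c uI : GUq n F) -
      algebraMap K (Module.End K (n ⊕ n → K)) i))) ≤ 1 := by
  set y : Module.End K (n ⊕ n → K) := rho K hab (Rj c uI : GUq n F) with hy
  set J : Module.End K (n ⊕ n → K) := rho K hab (Rj c uJ : GUq n F) with hJ
  have hW : ∀ w : U F, ∀ v ∈ Ui K c, rho K hab (Rj c w) v ∈ Ui K c := fun w v hv => by
    have := rho_Ui hab (Rj_mono c w) hv
    rwa [Perm.one_apply] at this
  have h1 : ∀ v, y v - v ∈ Ui K c := by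
    intro v d hd
    rw [Pi.sub_apply, Pi.sub_apply, hy, (rho_Rj_ne hab hd uI v).1, (rho_Rj_ne hab hd uI v).2, sub_self, sub_self]
    exact ⟨rfl, rfl⟩
  have h3 : ∀ v ∈ Ui K c, y (y v) = -v := by
    intro v hv
    have : y * y = rho K hab (Rj c nu) := by rw [hy, ← map_mul, ← map_mul, uI_sq]
    rw [← Module.End.mul_apply, this, rho_t_Ui hab hv]
  have h4 : ∀ v ∈ Ui K c, y (J v) = -J (y v) := by
    intro v hv
    have : y * J = rho K hab (Rj c nu) * (J * y) := by rw [hy, hJ, ← map_mul, ← map_mul, uIJ, map_mul, map_mul, map_mul, map_mul]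
    rw [← Module.End.mul_apply, this, Module.End.mul_apply, Module.End.mul_apply, rho_t_Ui hab (hW _ _ (hW _ _ hv))]
  let N : Submodule K (n ⊕ n → K) := Ui K c ⊓ LinearMap.ker (y + algebraMap K (Module.End K (n ⊕ n → K)) i)
  have hN : ∀ {v}, v ∈ N ↔ v ∈ Ui K c ∧ y v = -(i • v) := by
    intro v
    show v ∈ Ui K c ∧ v ∈ LinearMap.ker _ ↔ _
    rw [LinearMap.mem_ker, LinearMap.add_apply, Module.algebraMap_end_apply, add_eq_zero_iff_eq_neg]
  have hle : LinearMap.range ((y - 1) * (y - algebraMap K (Module.End K (n ⊕ n → K)) i)) ≤ N := by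
    rintro _ ⟨v, rfl⟩
    rw [hN]
    set w := y v - v with hw
    have hwW := h1 v
    have e1 : ((y - 1) * (y - algebraMap K (Module.End K (n ⊕ n → K)) i)) v = y w - i • w := by
      rw [Module.End.mul_apply, LinearMap.sub_apply, LinearMap.sub_apply, Module.algebraMap_end_apply,
        Module.End.one_apply, map_sub, map_smul, hw, map_sub, smul_sub]
      abel
    rw [e1]
    refine ⟨(Ui K c).sub_mem (hW _ _ hwW) ((Ui K c).smul_mem _ hwW), ?_⟩
    rw [map_sub, h3 w hwW, map_smul, smul_sub, smul_smul, hi, neg_smul, one_smul]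
    abel
  refine (Submodule.finrank_mono hle).trans ?_
  by_contra hcon
  push Not at hcon
  have hNW : N ≤ Ui K c := inf_le_left
  have heq : N = Ui K c := Submodule.eq_of_le_of_finrank_le hNW (by rw [finrank_Ui]; exact hcon)
  let v : n ⊕ n → K := Sum.elim (Pi.single c 1) 0
  have hv : v ∈ Ui K c := by
    intro e he
    show (Pi.single c 1 : n → K) e = 0 ∧ (0 : K) = 0
    rw [Pi.single_eq_of_ne he]
    exact ⟨rfl, rfl⟩
  have h5 : y (J v) = -(i • J v) := (hN.1 (heq ▸ hW _ _ hv : J v ∈ N)).2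
  have h6 : y v = -(i • v) := (hN.1 (heq ▸ hv : v ∈ N)).2
  rw [h4 v hv, h6, map_neg, map_smul, neg_neg] at h5
  have h7 : ((2 : K) * i) • J v = 0 := by
    rw [mul_smul, two_smul]
    nth_rewrite 1 [h5]
    exact neg_add_cancel _
  have hi0 : i ≠ 0 := by
    rintro rfl
    rw [mul_zero] at hi
    exact one_ne_zero (neg_eq_zero.1 hi.symm)
  have h8 : J v = 0 := (smul_eq_zero.1 h7).resolve_left (mul_ne_zero h2 hi0)
  have h9 : v = 0 := by
    have h10 : rho K hab (Rj c uJ⁻¹) (J v) = v := by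
      rw [← Module.End.mul_apply, hJ, ← map_mul, ← map_mul, inv_mul_cancel, map_one, map_one, Module.End.one_apply]
    rw [← h10, h8, map_zero]
  have h10 : v (Sum.inl c) = 1 := by
    show (Pi.single c 1 : n → K) c = 1
    rw [Pi.single_eq_same]
  rw [h9] at h10
  exact zero_ne_one h10

end

/-- **the coordinate involutions lie in the 2-core** -/
theorem t_mem_pCore {F : Type} [Field F] [Finite F] {p : ℕ} [Fact p.Prime] [CharP F p] (h2 : (2 : F) ≠ 0)
    {n : Type*} [Fintype n] [DecidableEq n] {H : Subgroup (GUq n F)} (hp : ¬ p ∣ Nat.card H)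
    (hQ : ∀ a, ∀ w ∈ Q8 F, Rj a w ∈ H) (c : n) : (⟨Rj c nu, hQ c nu nu_mem⟩ : H) ∈ Cfsg.pCore 2 H := by
  obtain ⟨K, hK, hKf, hKa, i, hi⟩ := Cfsg.Agent.H563.RV.exists_i F
  obtain ⟨a, b, hab⟩ := exists_sq_add_sq (-1 : F)
  have hKp : CharP K p := charP_of_injective_algebraMap (algebraMap F K).injective p
  have h2K : (2 : K) ≠ 0 := by
    intro h
    apply h2
    apply (algebraMap F K).injective
    rw [map_ofNat, map_zero]
    exact h
  obtain ⟨B, hnd, halt, hinv⟩ := exists_form (K := K) (n := n) hab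
  let σ : Representation K H (n ⊕ n → K) := (rho K hab).comp H.subtype
  let y : H := ⟨Rj c uI, hQ c uI uI_mem⟩
  have hyy : y ^ 2 = ⟨Rj c nu, hQ c nu nu_mem⟩ := by
    apply Subtype.ext
    show (Rj c uI : GUq n F) ^ 2 = Rj c nu
    rw [pow_two, Rj_sq, uI_sq]
  have htt : y ^ 2 * y ^ 2 = 1 := by
    rw [hyy]
    apply Subtype.ext
    exact t_sq c
  have key := Cfsg.Agent.H408.Hall.MTwo.mem_pCore_of_rank (p := p) (F := K) (G := H) hp σ (y := y)
    (g := (X - C 1) * (X - C i)) (mul_ne_zero (X_sub_C_ne_zero _) (X_sub_C_ne_zero _)) (j := 1) (r := 1) ?_ ?_ ?_ ?_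
  · rw [pow_one, hyy] at key
    exact key
  · refine natDegree_mul_le.trans ?_
    rw [natDegree_X_sub_C, natDegree_X_sub_C]
    norm_num
  · rw [map_mul, map_sub (aeval _), map_sub (aeval _), aeval_X, aeval_C, aeval_C, map_one]
    exact rank_one h2K hab hi c
  · show y ^ 4 = 1
    rw [show 4 = 2 + 2 from rfl, pow_add, htt]
  · intro z hz hzt hzr
    rw [pow_one] at hzt
    have h3 : (σ z : Module.End K (n ⊕ n → K)) = 1 := by
      refine Cfsg.Agent.H563.RV.inv_trivial h2K B halt (fun v hv => hnd.2 v hv) (x' := σ z⁻¹) (t := σ (y ^ 2))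
        (fun v w => hinv _ v w) (fun v w => hinv _ v w) ?_ ?_ ?_ ?_ (N := orderOf z) hz ?_ ?_ hzr
      · rw [← map_mul, mul_inv_cancel, map_one]
      · rw [← map_mul, inv_mul_cancel, map_one]
      · rw [← map_mul, htt, map_one]
      · rw [← map_mul, ← map_mul, ← hzt, inv_mul_cancel_right]
      · rw [Ne, CharP.cast_eq_zero_iff K p]
        exact fun h => hp (h.trans (orderOf_dvd_natCard z))
      · rw [← map_pow, pow_orderOf_eq_one, map_one]
    have h4 : rho K hab (z : GUq n F) = rho K hab 1 := by rw [map_one]; exact h3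
    exact Subtype.ext (rho_injective hab h2 h4)

end Cfsg.Agent.H36.Hall
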