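import Cfsg.Agent.H36.Hall.Prod
import Cfsg.Agent.H165.RV.Step

/-!
# S2223: lemma W (helper36): pronormality in a subgroup normalised by `H`
-/

set_option autoImplicit false

namespace Cfsg.Agent.H36.Hall

open Subgroup Cfsg.Agent.H125.Hall
open Cfsg.Agent.H165.RV Cfsg.Agent.H988.CPi
open scoped Pointwise

variable {G : Type*} [Group G]

theorem pj_iff {H : Subgroup G} {g : G} : PJ H g ↔ Pr H g := by
  unfold PJ Pr
  simp only [cj_eq]

set_option maxHeartbeats 400000 in
theorem lemW [Finite G] {H B : Subgroup G} (hH : (Nat.card H).Coprime H.index)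
    (hn : ∀ h ∈ H, ∀ x ∈ B, h * x * h⁻¹ ∈ B) {g : G} (hg : g ∈ B) (hPJ : PJ (H ⊓ B) g) : PJ H g := by
  rw [pj_iff] at hPJ ⊢
  have hN : H ⊔ B ≤ normalizer (B : Set G) := by
    rw [sup_le_iff]
    refine ⟨fun h hh => ?_, le_normalizer⟩
    rw [mem_normalizer_iff]
    intro x
    refine ⟨hn h hh x, fun hx => ?_⟩
    have := hn h⁻¹ (inv_mem hh) _ hx
    have e : h⁻¹ * (h * x * h⁻¹) * h⁻¹⁻¹ = x := by group
    rwa [e] at this
  obtain ⟨L, hL⟩ : ∃ L, L = H ⊔ B := ⟨_, rfl⟩
  have hHL : H ≤ L := hL ▸ le_sup_left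
  have hBL : B ≤ L := hL ▸ le_sup_right
  rw [← hL] at hN
  have hBn : (B.subgroupOf L).Normal := by
    refine ⟨fun x hx g => ?_⟩
    exact (mem_normalizer_iff.1 (hN g.2) x).1 hx
  have hgL : g ∈ L := hBL hg
  let π : Set ℕ := {q | q ∣ Nat.card H}
  have c1 : Nat.card (H.subgroupOf L) = Nat.card H := by
    rw [← card_map_of_injective L.subtype_injective, subgroupOf_map_subtype, inf_of_le_left hHL]
  have key : Pr (H.subgroupOf L) (⟨g, hgL⟩ : L) := by
    refine Pr.of_inter (π := π) (B.subgroupOf L) ?_ ?_ ?_ ?_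
    · intro q _ hq
      rw [c1] at hq
      exact hq
    · intro q hq hqπ hd
      rw [Subgroup.relIndex_subgroupOf hBL] at hd
      have h1 := hd.trans (relIndex_dvd hn)
      have h2 := Nat.dvd_gcd hqπ h1
      rw [hH] at h2
      exact hq.one_lt.ne' (Nat.dvd_one.1 h2)
    · have h1 : (⟨g, hgL⟩ : L) ∈ H.subgroupOf L ⊔ B.subgroupOf L := mem_sup_right hg
      have h2 := smul_eq_of_mem h1
      rw [smul_sup', smul_normal (B.subgroupOf L)] at h2
      exact h2
    · obtain ⟨x, hx, he⟩ := hPJ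
      have hle : H ⊓ B ⊔ MulAut.conj g • (H ⊓ B) ≤ B := by
        refine sup_le inf_le_right ?_
        rintro _ ⟨y, hy, rfl⟩
        exact mul_mem (mul_mem hg hy.2) (inv_mem hg)
      have hxL : x ∈ L := hBL (hle hx)
      have e1 : ∀ y : L, (MulAut.conj y • (H.subgroupOf L ⊓ B.subgroupOf L)).map L.subtype =
          MulAut.conj (y : G) • (H ⊓ B) := by
        intro y
        rw [map_smul', Subgroup.map_inf _ _ _ L.subtype_injective, subgroupOf_map_subtype, subgroupOf_map_subtype,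
          inf_of_le_left hHL, inf_of_le_left hBL]
        rfl
      have e0 : (H.subgroupOf L ⊓ B.subgroupOf L).map L.subtype = H ⊓ B := by
        rw [Subgroup.map_inf _ _ _ L.subtype_injective, subgroupOf_map_subtype, subgroupOf_map_subtype,
          inf_of_le_left hHL, inf_of_le_left hBL]
      refine ⟨⟨x, hxL⟩, ?_, ?_⟩
      · have h3 : L.subtype ⟨x, hxL⟩ ∈ ((H.subgroupOf L ⊓ B.subgroupOf L) ⊔
            MulAut.conj (⟨g, hgL⟩ : L) • (H.subgroupOf L ⊓ B.subgroupOf L)).map L.subtype := by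
          rw [Subgroup.map_sup, e1, e0]
          exact hx
        obtain ⟨z, hz, hze⟩ := h3
        have h6 : z = ⟨x, hxL⟩ := L.subtype_injective hze
        rw [← h6]
        exact hz
      · apply Subgroup.map_injective L.subtype_injective
        rw [e1, e1]
        exact he
  have h9 := Pr.of_subgroupOf (M := L) (H := H) (g := (⟨g, hgL⟩ : L)) hHL key
  exact h9

/-- elements of `B S` -/
theorem pj_mul_of_mem {H : Subgroup G} {b s : G} (hs : s ∈ H) (h : PJ H b) : PJ H (b * s) := by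
  rw [pj_iff] at h ⊢
  exact h.mul_right hs

end Cfsg.Agent.H36.Hall
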