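import Cfsg.Agent.H125.Hall.Defs
import Cfsg.Agent.H158.PronB
import Cfsg.Agent.H408.Pron.Defs

/-!
# S2223: Hall subgroups of direct products, reduction to overgroups of a Sylow subgroup (helper36, task 4217)

* `hp_of_sylow` : it suffices to look at the Hall subgroups containing a given Sylow 2-subgroup `S` and at `g ∈ N(S)`;
* `relIndex_dvd` : `|B : B ∩ H|` divides `|G : H|` if `H` normalises `B`;
* `HP.pi` : finite direct products; `pj_range` : pronormality inside a subgroup; `HP.of_po`.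
-/

set_option autoImplicit false

namespace Cfsg.Agent.H36.Hall

open Subgroup Cfsg.Agent.H125.Hall
open Cfsg.Agent.H158.PronProd (mem_map_conj conj_mem_map_conj)

section One

variable {G : Type*} [Group G]

theorem odd_index [Finite G] {H : Subgroup G} (hH : (Nat.card H).Coprime H.index) (h2 : Even (Nat.card H)) :
    Odd H.index := by
  rw [← Nat.not_even_iff_odd, even_iff_two_dvd]
  intro h
  have := Nat.dvd_gcd (even_iff_two_dvd.1 h2) h
  rw [hH] at this
  omega

theorem HP.of_po [Finite G] {p : ℕ} (h : Cfsg.Agent.H408.Pron.PO G) : HP p G :=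
  fun _ hH h2 _ => h _ (odd_index hH h2)

theorem hp_of_sylow [Finite G] {p : ℕ} (S : Sylow 2 G)
    (h : ∀ H : Subgroup G, (S : Subgroup G) ≤ H → (Nat.card H).Coprime H.index → ¬ p ∣ Nat.card H →
      ∀ g ∈ normalizer ((S : Subgroup G) : Set G), PJ H g) : HP p G := by
  intro H hH h2 hp
  obtain ⟨P, hP⟩ := Cfsg.Agent.H158.PronProd.exists_sylow_le' (odd_index hH h2)
  obtain ⟨c, rfl⟩ := MulAction.exists_smul_eq G S P
  have h3 : (S : Subgroup G) ≤ H.map (MulAut.conj c⁻¹).toMonoidHom := by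
    intro s hs
    rw [mem_map_conj, inv_inv]
    apply hP
    rw [Sylow.coe_subgroup_smul, Subgroup.mem_pointwise_smul_iff_inv_smul_mem]
    have h0 : (MulAut.conj c)⁻¹ • (c * s * c⁻¹) = s := by
      rw [← map_inv, MulAut.smul_def, MulAut.conj_apply, inv_inv]
      group
    rw [h0]; exact hs
  have hcard : Nat.card ↥(H.map (MulAut.conj c⁻¹).toMonoidHom) = Nat.card H :=
    Subgroup.card_map_of_injective (MulAut.conj c⁻¹).injective
  have hidx : (H.map (MulAut.conj c⁻¹).toMonoidHom).index = H.index := by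
    have h5 := Subgroup.card_mul_index H
    have h6 := Subgroup.card_mul_index (H.map (MulAut.conj c⁻¹).toMonoidHom)
    rw [hcard, ← h5] at h6
    exact Nat.eq_of_mul_eq_mul_left Nat.card_pos h6
  have h4 := Cfsg.Agent.H94.Pronormal.isPronormal_of_sylow S _ h3
    (h _ h3 (by rw [hcard, hidx]; exact hH) (by rw [hcard]; exact hp))
  have h5 := Cfsg.Agent.H158.PronB.pronormal_conj h4 c
  rw [← Cfsg.Agent.H94.Pronormal.map_conj_mul, mul_inv_cancel, Cfsg.Agent.H94.Pronormal.map_conj_one] at h5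
  exact h5

theorem relIndex_dvd_normal [Finite G] {H B : Subgroup G} [B.Normal] : H.relIndex B ∣ H.index := by
  have h1 : H.relIndex (H ⊔ B) * (H ⊔ B).index = H.index := Subgroup.relIndex_mul_index le_sup_left
  have h2 : B.relIndex (H ⊔ B) = B.relIndex H := Subgroup.relIndex_sup_right _ _
  have key : ∀ X Y : Subgroup G, Nat.card ↥(X ⊓ Y) * X.relIndex Y = Nat.card Y := by
    intro X Y
    rw [← Subgroup.inf_relIndex_right, Subgroup.relIndex, ← Subgroup.card_mul_index ((X ⊓ Y).subgroupOf Y)]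
    congr 1
    exact (Nat.card_congr (subgroupOfEquivOfLe (inf_le_right : X ⊓ Y ≤ Y)).toEquiv).symm
  have e1 := key B (H ⊔ B)
  have e2 := key H (H ⊔ B)
  have e3 := key B H
  have e4 := key H B
  rw [inf_eq_left.2 le_sup_right, h2] at e1
  rw [inf_eq_left.2 le_sup_left] at e2
  rw [inf_comm] at e3
  have h3 : H.relIndex (H ⊔ B) = H.relIndex B := by
    have hpos : 0 < Nat.card H := Nat.card_pos
    apply Nat.eq_of_mul_eq_mul_left hpos
    rw [e2, ← e1, ← e4, ← e3]
    ring
  rw [← h3]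
  exact Dvd.intro _ h1

/-- `|B : B ∩ H|` divides `|G : H|` if `H` normalises `B`. -/
theorem relIndex_dvd [Finite G] {H B : Subgroup G} (hn : ∀ h ∈ H, ∀ x ∈ B, h * x * h⁻¹ ∈ B) :
    H.relIndex B ∣ H.index := by
  have hN : H ⊔ B ≤ normalizer (B : Set G) := by
    rw [sup_le_iff]
    refine ⟨fun h hh => ?_, le_normalizer⟩
    rw [mem_normalizer_iff]
    intro x
    refine ⟨hn h hh x, fun hx => ?_⟩
    have := hn h⁻¹ (inv_mem hh) _ hx
    have e : h⁻¹ * (h * x * h⁻¹) * h⁻¹⁻¹ = x := by group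
    rwa [e] at this
  have : (B.subgroupOf (H ⊔ B)).Normal := by
    refine ⟨fun x hx g => ?_⟩
    exact (mem_normalizer_iff.1 (hN g.2) x).1 hx
  have h1 := relIndex_dvd_normal (H := H.subgroupOf (H ⊔ B)) (B := B.subgroupOf (H ⊔ B))
  rw [Subgroup.relIndex_subgroupOf le_sup_right] at h1
  exact h1.trans (Subgroup.relIndex_dvd_index_of_le le_sup_left)

/-- Pronormality inside a subgroup. -/
theorem pj_range {B : Type*} [Group B] [Finite G] {p : ℕ} (f : B →* G) (hf : Function.Injective f) (hB : HP p B)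
    {D : Subgroup G} (hD : D ≤ f.range) (hcop : (Nat.card D).Coprime (D.relIndex f.range)) (h2 : Even (Nat.card D))
    (hp : ¬ p ∣ Nat.card D) {g : G} (hg : g ∈ f.range) : PJ D g := by
  obtain ⟨b, rfl⟩ := hg
  have h1 : (D.comap f).index = D.relIndex f.range := Subgroup.index_comap _ _
  have hmap : (D.comap f).map f = D := Subgroup.map_comap_eq_self hD
  have h3 : Nat.card ↥(D.comap f) = Nat.card D := by
    rw [Nat.card_congr ((D.comap f).equivMapOfInjective f hf).toEquiv, hmap]
  obtain ⟨x, hx, hxe⟩ := hB (D.comap f) (by rw [h1, h3]; exact hcop) (by rw [h3]; exact h2) (by rw [h3]; exact hp) b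
  have h4 : ∀ y : B, ((D.comap f).map (MulAut.conj y).toMonoidHom).map f =
      D.map (MulAut.conj (f y)).toMonoidHom := by
    intro y
    ext z
    constructor
    · rintro ⟨_, ⟨w, hw, rfl⟩, rfl⟩
      exact ⟨f w, hw, by simp⟩
    · rintro ⟨w, hw, rfl⟩
      obtain ⟨v, rfl⟩ := hD hw
      exact ⟨_, ⟨v, hw, rfl⟩, by simp⟩
  refine ⟨f x, ?_, ?_⟩
  · have h5 : f x ∈ ((D.comap f) ⊔ (D.comap f).map (MulAut.conj b).toMonoidHom).map f := ⟨x, hx, rfl⟩
    rw [Subgroup.map_sup, h4, hmap] at h5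
    exact h5
  · rw [← h4, ← h4, hxe]

end One

section Pi

variable {ι : Type*} [Finite ι] {G : ι → Type*} [∀ i, Group (G i)] [∀ i, Finite (G i)]

/-- **Hall subgroups of direct products.** -/
theorem HP.pi {p : ℕ} (h : ∀ i, HP p (G i)) (he : ∀ i, Even (Nat.card (G i))) : HP p (∀ i, G i) := by
  classical
  intro H hH h2 hp g
  let K : ∀ i, Subgroup (G i) := fun i => H.comap (MonoidHom.mulSingle G i)
  have hR : ∀ i, ((MonoidHom.mulSingle G i).range).Normal := by
    intro i
    refine ⟨?_⟩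
    rintro _ ⟨x, rfl⟩ y
    refine ⟨y i * x * (y i)⁻¹, ?_⟩
    funext j
    rcases eq_or_ne j i with rfl | hj
    · simp
    · simp [Pi.mulSingle_eq_of_ne hj]
  have hidx : ∀ i, (K i).index ∣ H.index := by
    intro i
    have := hR i
    rw [Subgroup.index_comap]
    exact relIndex_dvd_normal
  have hinj : ∀ i, Function.Injective (MonoidHom.mulSingle G i) := fun i => Pi.mulSingle_injective i
  have hcard : ∀ i, Nat.card (K i) ∣ Nat.card H := by
    intro i
    rw [Nat.card_congr ((K i).equivMapOfInjective _ (hinj i)).toEquiv]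
    exact Subgroup.card_dvd_of_le (Subgroup.map_comap_le _ _)
  have hcop : ∀ i, (Nat.card (K i)).Coprime (K i).index := fun i =>
    Nat.Coprime.coprime_dvd_left (hcard i) (Nat.Coprime.coprime_dvd_right (hidx i) hH)
  have hodd : Odd H.index := odd_index hH h2
  have heK : ∀ i, Even (Nat.card (K i)) := by
    intro i
    have h3 := he i
    rw [← Subgroup.card_mul_index (K i)] at h3
    rcases Nat.even_mul.1 h3 with h4 | h4
    · exact h4
    · exfalso
      have h5 : Odd (K i).index := Odd.of_dvd_nat hodd (hidx i)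
      exact Nat.not_even_iff_odd.2 h5 h4
  -- projections
  have hproj : ∀ i, ∀ x ∈ H, x i ∈ K i := by
    intro i
    let f := Pi.evalMonoidHom G i
    have hle : K i ≤ H.map f := by
      intro x hx
      exact ⟨_, hx, by simp [f]⟩
    have h3 : (K i).relIndex (H.map f) ∣ Nat.card H :=
      (Subgroup.relIndex_dvd_card _ _).trans (Subgroup.card_map_dvd _ f)
    have h4 : (K i).relIndex (H.map f) ∣ H.index := (Subgroup.relIndex_dvd_index_of_le hle).trans (hidx i)
    have h5 : (K i).relIndex (H.map f) = 1 := Nat.dvd_one.1 (hH ▸ Nat.dvd_gcd h3 h4)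
    intro x hx
    exact Subgroup.relIndex_eq_one.1 h5 ⟨x, hx, rfl⟩
  have hmem : ∀ x, x ∈ H ↔ ∀ i, x i ∈ K i :=
    fun x => ⟨fun hx i => hproj i x hx, fun hx => Subgroup.pi_mem_of_mulSingle_mem x hx⟩
  have hpj : ∀ i, ∃ x ∈ K i ⊔ (K i).map (MulAut.conj (g i)).toMonoidHom,
      (K i).map (MulAut.conj (g i)).toMonoidHom = (K i).map (MulAut.conj x).toMonoidHom :=
    fun i => h i (K i) (hcop i) (heK i) (fun hd => hp (hd.trans (hcard i))) (g i)
  choose x hx hxe using hpj
  refine ⟨x, ?_, ?_⟩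
  · refine Subgroup.pi_mem_of_mulSingle_mem x fun i => ?_
    have h3 : (K i ⊔ (K i).map (MulAut.conj (g i)).toMonoidHom).map (MonoidHom.mulSingle G i) ≤
        H ⊔ H.map (MulAut.conj g).toMonoidHom := by
      rw [Subgroup.map_sup, sup_le_iff]
      refine ⟨(Subgroup.map_comap_le _ _).trans le_sup_left, ?_⟩
      rintro _ ⟨_, ⟨y, hy, rfl⟩, rfl⟩
      refine le_sup_right (a := H) ⟨MonoidHom.mulSingle G i y, hy, ?_⟩
      funext j
      rcases eq_or_ne j i with rfl | hj
      · simp
      · simp [Pi.mulSingle_eq_of_ne hj]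
    exact h3 ⟨x i, hx i, rfl⟩
  · ext y
    rw [mem_map_conj, mem_map_conj, hmem, hmem]
    refine forall_congr' fun i => ?_
    have h3 : y i ∈ (K i).map (MulAut.conj (g i)).toMonoidHom ↔ y i ∈ (K i).map (MulAut.conj (x i)).toMonoidHom := by
      rw [hxe i]
    rw [mem_map_conj, mem_map_conj] at h3
    exact h3

end Pi

end Cfsg.Agent.H36.Hall
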