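import Cfsg.Agent.H36.Hall.Blk
import Cfsg.Agent.H575.Hall.SpRow

/-!
# S2223: the reflections in the wreath product and their commutators (helper36)

* `Sw c d q` : the involution exchanging the `c`-th and the `d`-th coordinate (`e_c ↦ e_d q`, `e_d ↦ e_c q⁻¹`);
* `Shape T x` : `x` is `-1` on a coordinate or a `Sw c d q`, `swap c d ∈ T`, `q ∈ Q8`;
* `shape_of` : reflections in `SG (Q8 F) T` have this shape;
* `Shape.comm` : commutators of elements of this shape.
-/

set_option autoImplicit false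
set_option linter.unusedSectionVars false

namespace Cfsg.Agent.H36.Hall

open Quaternion Matrix Equiv
open Cfsg.Agent.H158.PronQ Cfsg.Agent.H158.PronMat Cfsg.Agent.H158.PronMono Cfsg.Agent.H158.PronFrame
open Cfsg.Agent.H158.PronAvg Cfsg.Agent.H408.Pron.PosGU Cfsg.Agent.H408.Pron.Gen
open Cfsg.Agent.H575.Hall

variable {F : Type*} [Field F] {n : Type*} [Fintype n] [DecidableEq n]

/-- the involution exchanging two coordinates -/
def Sw (c d : n) (q : U F) : GU n F := Rj d q * PM (swap c d) * (Rj d q)⁻¹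

/-- the shape of the reflections -/
def Shape (T : Subgroup (Perm n)) (x : GU n F) : Prop :=
  (∃ j, x = Rj j nu) ∨ ∃ c d, c ≠ d ∧ swap c d ∈ T ∧ ∃ q ∈ Q8 F, x = Sw c d q

theorem mono_t {g : GU n F} {σ : Perm n} (hg : Mono g.1 σ) (c : n) : g * Rj c nu * g⁻¹ = Rj (σ c) nu := by
  obtain ⟨u, hu⟩ := hg.entry c
  rw [hg.conj_Rj c hu, nu_comm, mul_inv_cancel_right]

theorem PM_conj_Rj (σ : Perm n) (c : n) (w : U F) : PM σ * Rj c w * (PM σ)⁻¹ = Rj (σ c) w := by
  have h := (PM_mono (F := F) σ).conj_Rj c (u := 1) (by rw [PM_apply, if_pos rfl]; rfl) w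
  rw [one_mul, inv_one, mul_one] at h
  exact h

theorem PM_swap_inv (c d : n) : (PM (swap c d) : GU n F)⁻¹ = PM (swap c d) := by
  rw [← map_inv, swap_inv]

theorem PM_swap_sq (c d : n) : (PM (swap c d) : GU n F) * PM (swap c d) = 1 := by
  rw [← map_mul, Equiv.swap_mul_self, map_one]

theorem Sw_mono (c d : n) (q : U F) : Mono (Sw c d q).1 (swap c d) := by
  have h1 : Mono (Rj d q * PM (swap c d) * (Rj d q)⁻¹ : GU n F).1 (1 * swap c d * 1) := by
    refine ((Rj_mono d q).mul (PM_mono _)).mul ?_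
    rw [← map_inv]
    exact Rj_mono d q⁻¹
  rw [one_mul, mul_one] at h1
  exact h1

theorem Sw_sq (c d : n) (q : U F) : Sw c d q * Sw c d q = 1 := by
  unfold Sw
  calc Rj d q * PM (swap c d) * (Rj d q)⁻¹ * (Rj d q * PM (swap c d) * (Rj d q)⁻¹)
      = Rj d q * (PM (swap c d) * PM (swap c d)) * (Rj d q)⁻¹ := by group
    _ = 1 := by rw [PM_swap_sq, mul_one, mul_inv_cancel]

theorem Sw_inv (c d : n) (q : U F) : (Sw c d q)⁻¹ = Sw c d q := inv_eq_of_mul_eq_one_left (Sw_sq c d q)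

theorem Sw_eq (c d : n) (q : U F) : Sw c d q = Rj d q * Rj c q⁻¹ * PM (swap c d) := by
  have h := PM_conj_Rj (swap c d) d q⁻¹
  rw [swap_apply_right] at h
  unfold Sw
  rw [← map_inv, ← h]
  group

theorem Sw_symm {c d : n} (hcd : c ≠ d) (q : U F) : Sw d c q = Sw c d q⁻¹ := by
  rw [Sw_eq _ _, Sw_eq _ _, inv_inv, Rj_comm hcd, Equiv.swap_comm]

theorem Sw_mul {c d : n} (hcd : c ≠ d) (q r : U F) : Sw c d q * Sw c d r = Rj d (q * r⁻¹) * Rj c (q⁻¹ * r) := by
  have h := PM_conj_Rj (swap c d) d (q⁻¹ * r)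
  rw [swap_apply_right, PM_swap_inv] at h
  rw [← h, map_mul, map_mul, map_inv, map_inv]
  unfold Sw
  have h2 := Rj_comm (F := F) hcd (q⁻¹ * r) r⁻¹
  rw [← h, map_inv, map_mul, map_inv] at h2
  calc Rj d q * PM (swap c d) * (Rj d q)⁻¹ * (Rj d r * PM (swap c d) * (Rj d r)⁻¹)
      = Rj d q * (PM (swap c d) * ((Rj d q)⁻¹ * Rj d r) * PM (swap c d) * (Rj d r)⁻¹) := by group
    _ = Rj d q * ((Rj d r)⁻¹ * (PM (swap c d) * ((Rj d q)⁻¹ * Rj d r) * PM (swap c d))) := by rw [h2]
    _ = _ := by group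

theorem Rj_sq (c : n) (w : U F) : Rj c w * Rj c w = Rj c (w * w) := (map_mul _ _ _).symm

theorem Sw_comm_sq {c d : n} (hcd : c ≠ d) (q r : U F) :
    (Sw c d q * Sw c d r) * (Sw c d q * Sw c d r) =
      Rj d ((q * r⁻¹) * (q * r⁻¹)) * Rj c ((q⁻¹ * r) * (q⁻¹ * r)) := by
  rw [Sw_mul hcd]
  have h2 := Rj_comm (F := F) hcd (q⁻¹ * r) (q * r⁻¹)
  calc Rj d (q * r⁻¹) * Rj c (q⁻¹ * r) * (Rj d (q * r⁻¹) * Rj c (q⁻¹ * r))
      = Rj d (q * r⁻¹) * (Rj c (q⁻¹ * r) * Rj d (q * r⁻¹)) * Rj c (q⁻¹ * r) := by group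
    _ = Rj d (q * r⁻¹) * (Rj d (q * r⁻¹) * Rj c (q⁻¹ * r)) * Rj c (q⁻¹ * r) := by rw [h2]
    _ = (Rj d (q * r⁻¹) * Rj d (q * r⁻¹)) * (Rj c (q⁻¹ * r) * Rj c (q⁻¹ * r)) := by group
    _ = _ := by rw [Rj_sq, Rj_sq]

theorem Q8_mul_self {w : U F} (hw : w ∈ Q8 F) : w * w = 1 ∨ w * w = nu := by
  have h : IsQ8 (w : ℍ[F]) := hw
  rcases h with h1 | h1 | h1 | h1 | h1 | h1 | h1 | h1
  · left; apply Subtype.ext; show (w : ℍ[F]) * w = 1; rw [h1, one_mul]
  · left; apply Subtype.ext; show (w : ℍ[F]) * w = 1; rw [h1, neg_mul_neg, one_mul]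
  all_goals
    right; apply Subtype.ext; show (w : ℍ[F]) * w = -1
    rw [h1]
    simp only [neg_mul_neg, qi_mul_qi, qj_mul_qj, qk_mul_qk]

theorem nu_inv : (nu : U F)⁻¹ = nu := inv_eq_of_mul_eq_one_left nu_sq

theorem sq_eq {q r : U F} (hq : q ∈ Q8 F) (hr : r ∈ Q8 F) :
    (q⁻¹ * r) * (q⁻¹ * r) = (q * r⁻¹) * (q * r⁻¹) := by
  have h1 : (q⁻¹ * r) * (q⁻¹ * r) = r⁻¹ * ((q * r⁻¹) * (q * r⁻¹))⁻¹ * r := by group
  rw [h1]
  rcases Q8_mul_self (mul_mem hq (inv_mem hr)) with h | h
  · rw [h]; group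
  · rw [h, nu_inv, mul_assoc, ← nu_comm, inv_mul_cancel_left]

theorem t_sq (c : n) : (Rj c nu : GU n F) * Rj c nu = 1 := by rw [Rj_sq, nu_sq, map_one]

theorem t_inv (c : n) : (Rj c nu : GU n F)⁻¹ = Rj c nu := inv_eq_of_mul_eq_one_left (t_sq c)

theorem t_injective (h2 : (2 : F) ≠ 0) {c d : n} (h : (Rj c nu : GU n F) = Rj d nu) : c = d := by
  by_contra hcd
  have h1 : (Rj c nu : GU n F).1 c c = (Rj d nu : GU n F).1 c c := by rw [h]
  rw [Rj_apply, Rj_apply, if_pos rfl, if_pos rfl, if_neg hcd, if_pos rfl, coe_nu] at h1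
  exact one_ne_neg_one h2 h1.symm

theorem t_comm (c d : n) : (Rj c nu : GU n F) * Rj d nu = Rj d nu * Rj c nu := by
  by_cases h : c = d
  · rw [h]
  · exact Rj_comm h _ _

/-- disjoint supports -/
theorem Sw_comm {c d c' d' : n} (h1 : c ≠ c') (h2 : c ≠ d') (h3 : d ≠ c') (h4 : d ≠ d')
    (q r : U F) : Sw c d q * Sw c' d' r = Sw c' d' r * Sw c d q := by
  have e1 : Commute (Rj d q : GU n F) (Rj d' r) := Rj_comm h4 _ _
  have key : ∀ (a b x : n) (w : U F), x ≠ a → x ≠ b → Commute (PM (swap a b) : GU n F) (Rj x w) := by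
    intro a b x w ha hb
    have := PM_conj_Rj (F := F) (swap a b) x w
    rw [swap_apply_of_ne_of_ne ha hb] at this
    exact mul_inv_eq_iff_eq_mul.1 this
  have e2 : Commute (PM (swap c d) : GU n F) (Rj d' r) := key _ _ _ _ h2.symm h4.symm
  have e3 : Commute (PM (swap c' d') : GU n F) (Rj d q) := key _ _ _ _ h3 h4
  have e4 : Commute (PM (swap c d) : GU n F) (PM (swap c' d')) := by
    have h5 : Commute (swap c d) (swap c' d') := by
      apply Equiv.Perm.Disjoint.commute
      intro x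
      by_cases hx : x = c
      · right; rw [hx, swap_apply_of_ne_of_ne h1 h2]
      · by_cases hx' : x = d
        · right; rw [hx', swap_apply_of_ne_of_ne h3 h4]
        · left; rw [swap_apply_of_ne_of_ne hx hx']
    show PM _ * PM _ = PM _ * PM _
    rw [← map_mul, h5.eq, map_mul]
  have f1 : Commute (Rj d q : GU n F) (Sw c' d' r) := (e1.mul_right e3.symm).mul_right e1.inv_right
  have f2 : Commute (PM (swap c d) : GU n F) (Sw c' d' r) := (e2.mul_right e4).mul_right e2.inv_right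
  exact ((f1.mul_left f2).mul_left f1.inv_left).eq

theorem Shape.exists_mono {T : Subgroup (Perm n)} {x : GU n F} (hx : Shape T x) :
    ∃ σ : Perm n, Mono x.1 σ := by
  rcases hx with ⟨j, rfl⟩ | ⟨c, d, -, -, q, -, rfl⟩
  · exact ⟨1, Rj_mono j nu⟩
  · exact ⟨_, Sw_mono c d q⟩

theorem Shape.sq {T : Subgroup (Perm n)} {x : GU n F} (hx : Shape T x) : x * x = 1 := by
  rcases hx with ⟨j, rfl⟩ | ⟨c, d, -, -, q, -, rfl⟩
  · exact t_sq j
  · exact Sw_sq c d q

/-- an element of this shape which moves a coordinate involution -/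
theorem Shape.move (h2 : (2 : F) ≠ 0) {T : Subgroup (Perm n)} {x : GU n F} (hx : Shape T x) {c d : n} (hcd : c ≠ d)
    (h : x * Rj c nu * x⁻¹ = Rj d nu) : swap c d ∈ T := by
  rcases hx with ⟨j, rfl⟩ | ⟨a, b, hab, hT, q, -, rfl⟩
  · rw [t_comm j c, mul_inv_cancel_right] at h
    exact absurd (t_injective h2 h) hcd
  · rw [mono_t (Sw_mono a b q)] at h
    have h3 := t_injective h2 h
    by_cases hca : c = a
    · subst hca
      rw [swap_apply_left] at h3
      rwa [← h3]
    · by_cases hcb : c = b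
      · subst hcb
        rw [swap_apply_right] at h3
        rw [← h3, Equiv.swap_comm]
        exact hT
      · rw [swap_apply_of_ne_of_ne hca hcb] at h3
        exact absurd h3 hcd

/-- commutators -/
theorem Shape.comm {T : Subgroup (Perm n)} (hT : IsPGroup 2 T) {x y : GU n F} (hx : Shape T x)
    (hy : Shape T y) : x * y * x⁻¹ * y⁻¹ = 1 ∨ ∃ c d, c ≠ d ∧ x * y * x⁻¹ * y⁻¹ = Rj c nu * Rj d nu ∧
      (x * Rj c nu * x⁻¹ = Rj d nu ∨ y * Rj c nu * y⁻¹ = Rj d nu) := by
  rcases hx with ⟨j, rfl⟩ | ⟨c, d, hcd, hcT, q, hq, rfl⟩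
  · obtain ⟨σ, hσ⟩ := hy.exists_mono
    have h1 := mono_t hσ j
    have h3 : Rj j nu * y * (Rj j nu)⁻¹ * y⁻¹ = Rj j nu * Rj (σ j) nu := by
      rw [← h1, t_inv]; group
    by_cases hj : σ j = j
    · left; rw [h3, hj, t_sq]
    · right
      exact ⟨j, σ j, fun h => hj h.symm, h3, Or.inr h1⟩
  rcases hy with ⟨j, rfl⟩ | ⟨c', d', hcd', hcT', r, hr, rfl⟩
  · have h1 := mono_t (Sw_mono c d q) j
    rw [h1, t_inv]
    by_cases hj : swap c d j = j
    · left; rw [hj, t_sq]
    · right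
      exact ⟨j, swap c d j, fun h => hj h.symm, t_comm _ _, Or.inl h1⟩
  -- two swaps
  have hfin : ∀ r' ∈ Q8 F, ∀ y : GU n F, y = Sw c d r' → Sw c d q * y * (Sw c d q)⁻¹ * y⁻¹ = 1 ∨ ∃ c' d', c' ≠ d' ∧
      Sw c d q * y * (Sw c d q)⁻¹ * y⁻¹ = Rj c' nu * Rj d' nu ∧
      (Sw c d q * Rj c' nu * (Sw c d q)⁻¹ = Rj d' nu ∨ y * Rj c' nu * y⁻¹ = Rj d' nu) := by
    rintro r' hr' _ rfl
    have h3 : Sw c d q * Sw c d r' * (Sw c d q)⁻¹ * (Sw c d r')⁻¹ =
        Rj d ((q * r'⁻¹) * (q * r'⁻¹)) * Rj c ((q * r'⁻¹) * (q * r'⁻¹)) := by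
      rw [Sw_inv, Sw_inv, mul_assoc, Sw_comm_sq hcd, sq_eq hq hr']
    rcases Q8_mul_self (mul_mem hq (inv_mem hr')) with h | h
    · left; rw [h3, h, map_one, map_one, mul_one]
    · right
      refine ⟨c, d, hcd, by rw [h3, h, t_comm], Or.inl ?_⟩
      rw [mono_t (Sw_mono c d q), swap_apply_left]
  by_cases h1 : c = c'
  · subst h1
    by_cases h4 : d = d'
    · subst h4
      exact hfin r hr _ rfl
    · exact (not_swap hT hcd hcd' h4 hcT hcT').elim
  by_cases h2 : c = d'
  · subst h2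
    by_cases h3 : d = c'
    · subst h3
      exact hfin r⁻¹ (inv_mem hr) _ (Sw_symm hcd r)
    · exact (not_swap hT hcd hcd'.symm h3 hcT (by rwa [Equiv.swap_comm] at hcT')).elim
  by_cases h3 : d = c'
  · subst h3
    exact (not_swap hT hcd.symm hcd' h2 (by rwa [Equiv.swap_comm] at hcT) hcT').elim
  by_cases h4 : d = d'
  · subst h4
    exact (not_swap hT hcd.symm hcd'.symm h1 (by rwa [Equiv.swap_comm] at hcT) (by rwa [Equiv.swap_comm] at hcT')).elim
  left
  rw [Sw_comm h1 h2 h3 h4, mul_inv_cancel_right, mul_inv_cancel]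

/-- **the reflections in the wreath product** -/
theorem shape_of (h2 : (2 : F) ≠ 0) {T : Subgroup (Perm n)} {x : n → ℍ[F]} {hx : ip x x = 1}
    (h : R x hx nu ∈ SG (Q8 F) T) : Shape T (R x hx nu) := by
  rcases rf_mem_SG h2 h with ⟨j, hj⟩ | ⟨a, b, hab, hT, hm, hzero, hbb, w, hw, hxa⟩
  · left
    refine ⟨j, ?_⟩
    have h1 : normSq (x j) = 1 := by
      have h3 := sum_normSq hx
      rw [Finset.sum_eq_single j (fun c _ hc => by rw [hj c hc, map_zero])
        (fun h => absurd (Finset.mem_univ _) h)] at h3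
      exact h3
    apply Subtype.ext
    ext1 c d
    rw [rf_apply, Rj_apply]
    by_cases hcd : c = d
    · subst hcd
      rw [if_pos rfl, Matrix.one_apply_eq, self_mul_star]
      by_cases hcj : c = j
      · subst hcj
        rw [if_pos rfl, h1, coe_nu, Quaternion.coe_one]
        norm_num
      · rw [if_neg hcj, hj c hcj, map_zero, Quaternion.coe_zero, mul_zero, sub_zero]
    · rw [if_neg hcd, Matrix.one_apply_ne hcd]
      by_cases hcj : c = j
      · have hdj : d ≠ j := fun h => hcd (hcj.trans h.symm)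
        rw [hj d hdj, star_zero, mul_zero, mul_zero, sub_zero]
      · rw [hj c hcj, zero_mul, mul_zero, sub_zero]
  · right
    refine ⟨b, a, hab.symm, by rwa [Equiv.swap_comm], w, hw, ?_⟩
    apply Subtype.ext
    ext1 c d
    have hN : (2 : ℍ[F]) * (x b * star (x b)) = 1 := by
      rw [self_mul_star]
      have h4 : ((2 * normSq (x b) : F) : ℍ[F]) = 1 := by rw [hbb]; rfl
      rw [Quaternion.coe_mul] at h4
      exact h4
    have hcen : ∀ y : ℍ[F], (2 : ℍ[F]) * y = y * 2 := fun y => by rw [two_mul, mul_two]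
    have hSw : (Sw b a w : GU n F).1 c d = (if c = a then (w : ℍ[F]) else if c = b then ((w⁻¹ : U F) : ℍ[F]) else 1) *
        (if c = swap b a d then 1 else 0) := by
      rw [Sw_eq _ _, Rj_eq_D, Rj_eq_D, ← map_mul, D_mul_apply, PM_apply]
      congr 1
      show (((if c = a then w else 1) * (if c = b then w⁻¹ else 1) : U F) : ℍ[F]) = _
      by_cases hca : c = a
      · have hcb : c ≠ b := fun h => hab (hca.symm.trans h)
        rw [if_pos hca, if_neg hcb, mul_one, if_pos hca]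
      · rw [if_neg hca, one_mul, if_neg hca]
        split_ifs <;> rfl
    rw [hSw, rf_apply]
    by_cases hca : c = a
    · subst hca
      rw [if_pos rfl]
      by_cases hdc : d = c
      · subst hdc
        have h5 : (2 : ℍ[F]) * (x d * star (x d)) = 1 := by
          rw [hxa, star_neg, star_mul, neg_mul_neg]
          have : (w : ℍ[F]) * x b * (star (x b) * star (w : ℍ[F])) = w * (x b * star (x b)) * star (w : ℍ[F]) := by
            simp only [mul_assoc]
          rw [this, ← mul_assoc, ← mul_assoc, hcen, mul_assoc (w : ℍ[F]), hN, mul_one]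
          exact Unitary.coe_mul_star_self w
        rw [Matrix.one_apply_eq, h5, sub_self, swap_apply_right, if_neg hab, mul_zero]
      · rw [Matrix.one_apply_ne (fun h => hdc h.symm), zero_sub]
        by_cases hdb : d = b
        · subst hdb
          rw [swap_apply_left, if_pos rfl, mul_one, hxa, neg_mul, mul_neg, neg_neg, mul_assoc, ← mul_assoc, hcen,
            mul_assoc, hN, mul_one]
        · rw [hzero d hdc hdb, star_zero, mul_zero, mul_zero, neg_zero, swap_apply_of_ne_of_ne hdb hdc,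
            if_neg (fun h => hdc h.symm), mul_zero]
    · rw [if_neg hca]
      by_cases hcb : c = b
      · subst hcb
        rw [if_pos rfl]
        by_cases hdc : d = c
        · subst hdc
          rw [Matrix.one_apply_eq, hN, sub_self, swap_apply_left, if_neg (fun h => hca h), mul_zero]
        · rw [Matrix.one_apply_ne (fun h => hdc h.symm), zero_sub]
          by_cases hda : d = a
          · subst hda
            rw [swap_apply_right, if_pos rfl, mul_one, hxa, star_neg, star_mul, mul_neg, mul_neg, neg_neg, ← mul_assoc,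
              ← mul_assoc, mul_assoc (2 : ℍ[F]), hN, one_mul, Cfsg.Agent.H158.PronQ.coe_inv]
          · rw [hzero d hda hdc, star_zero, mul_zero, mul_zero, neg_zero, swap_apply_of_ne_of_ne hdc hda,
              if_neg (fun h => hdc h.symm), mul_zero]
      · rw [if_neg hcb, hzero c hca hcb, zero_mul, mul_zero, sub_zero, one_mul]
        by_cases hcd : c = d
        · subst hcd
          rw [Matrix.one_apply_eq, swap_apply_of_ne_of_ne hcb hca, if_pos rfl]
        · rw [Matrix.one_apply_ne hcd]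
          have : c ≠ swap b a d := by
            intro h
            have h6 : swap b a c = d := by rw [h, swap_apply_self]
            rw [swap_apply_of_ne_of_ne hcb hca] at h6
            exact hcd h6
          rw [if_neg this]

end Cfsg.Agent.H36.Hall
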