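import Cfsg.Agent.H36.Hall.CoreT
import Cfsg.Agent.H36.Hall.LemW
import Cfsg.Agent.H128.Hall.Central

/-!
# S2223: Hall subgroups of even order prime to `p` of the symplectic groups, `2` not a square (helper36)

`H ≥ S = Q8 ≀ T` a `p'`-subgroup of `GU n F = Sp_2n(F)`. All coordinate involutions lie in the 2-core of `H`. Their
conjugates in `H` have the shape of `Refl.lean`; the involutions `tau` of the partition generated by the swaps among them are
characterised by commutators, so `H` permutes them and normalises the block group, whose factors are `Sp_2` and `Sp_4`.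
-/

set_option autoImplicit false
set_option linter.unusedSectionVars false

namespace Cfsg.Agent.H36.Hall

open Quaternion Matrix Equiv
open Cfsg.Agent.H158.PronQ Cfsg.Agent.H158.PronMat Cfsg.Agent.H158.PronMono Cfsg.Agent.H158.PronFrame
open Cfsg.Agent.H158.PronAvg Cfsg.Agent.H408.Pron.PosGU Cfsg.Agent.H408.Pron.Gen Cfsg.Agent.H158.PronM2
open Cfsg.Agent.H575.Hall Cfsg.Agent.H125.Hall

/-- the symplectic group in quaternionic form -/
local notation "GUq" => Cfsg.Agent.H158.PronMat.GU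

section comb

variable {F : Type*} [Field F] {n : Type*} [Fintype n] [DecidableEq n]

/-- the conjugates of the coordinate involutions -/
def CC (H : Subgroup (GUq n F)) : Set (GUq n F) := {x | ∃ h ∈ H, ∃ a, x = h * Rj a nu * h⁻¹}

theorem CC_conj {H : Subgroup (GUq n F)} {x h : GUq n F} (hx : x ∈ CC H) (hh : h ∈ H) : h * x * h⁻¹ ∈ CC H := by
  obtain ⟨k, hk, a, rfl⟩ := hx
  exact ⟨h * k, mul_mem hh hk, a, by group⟩

theorem t_mem_CC (H : Subgroup (GUq n F)) (a : n) : Rj a nu ∈ CC H := ⟨1, one_mem _, a, by group⟩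

theorem CC_sq {H : Subgroup (GUq n F)} {x : GUq n F} (hx : x ∈ CC H) : x * x = 1 := by
  obtain ⟨k, hk, a, rfl⟩ := hx
  calc k * Rj a nu * k⁻¹ * (k * Rj a nu * k⁻¹) = k * (Rj a nu * Rj a nu) * k⁻¹ := by group
    _ = 1 := by rw [t_sq]; group

/-- the partition -/
def lnk (h2 : (2 : F) ≠ 0) {T : Subgroup (Perm n)} (hT : IsPGroup 2 T) (H : Subgroup (GUq n F))
    (hC : ∀ x ∈ CC H, Shape T x) : Setoid n where
  r c d := c = d ∨ ∃ x ∈ CC H, x * Rj c nu * x⁻¹ = Rj d nu
  iseqv :=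
    { refl := fun _ => Or.inl rfl
      symm := by
        rintro c d (h | ⟨x, hx, h⟩)
        · exact Or.inl h.symm
        · right
          refine ⟨x, hx, ?_⟩
          have h1 : x⁻¹ = x := inv_eq_of_mul_eq_one_left (CC_sq hx)
          rw [← h, h1]
          calc x * (x * Rj c nu * x) * x = (x * x) * Rj c nu * (x * x) := by group
            _ = Rj c nu := by rw [CC_sq hx, one_mul, mul_one]
      trans := by
        rintro c d f (h | ⟨x, hx, h⟩) (h' | ⟨y, hy, h'⟩)
        · exact Or.inl (h.trans h')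
        · subst h; exact Or.inr ⟨y, hy, h'⟩
        · subst h'; exact Or.inr ⟨x, hx, h⟩
        · by_cases hcd : c = d
          · subst hcd; exact Or.inr ⟨y, hy, h'⟩
          · by_cases hdf : d = f
            · subst hdf; exact Or.inr ⟨x, hx, h⟩
            · by_cases hcf : c = f
              · exact Or.inl hcf
              · have h3 := (hC x hx).move h2 hcd h
                have h4 := (hC y hy).move h2 hdf h'
                exact (not_swap hT (fun e => hcd e.symm) hdf hcf (by rwa [Equiv.swap_comm]) h4).elim }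

theorem lnk_two (h2 : (2 : F) ≠ 0) {T : Subgroup (Perm n)} (hT : IsPGroup 2 T) (H : Subgroup (GUq n F))
    (hC : ∀ x ∈ CC H, Shape T x) {i j l : n} (h : lnk h2 hT H hC i j) (h' : lnk h2 hT H hC i l) :
    i = j ∨ i = l ∨ j = l := by
  rcases h with h | ⟨x, hx, h⟩
  · exact Or.inl h
  rcases h' with h' | ⟨y, hy, h'⟩
  · exact Or.inr (Or.inl h')
  by_contra hcon
  push Not at hcon
  exact not_swap hT hcon.1 hcon.2.1 hcon.2.2 ((hC x hx).move h2 hcon.1 h) ((hC y hy).move h2 hcon.2.1 h')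

theorem tau_single {e : Setoid n} {i : n} (h : ∀ l, e i l → l = i) : tau F e i = Rj i nu := by
  rw [tau, Rj_eq_D]
  congr 1
  funext l
  by_cases hl : l = i
  · subst hl; rw [if_pos (e.refl' l), if_pos rfl]
  · rw [if_neg (fun h' => hl (h l h')), if_neg hl]

theorem tau_pair {e : Setoid n} {i j : n} (hij : i ≠ j) (he : e i j) (h : ∀ l, e i l → l = i ∨ l = j) :
    tau F e i = Rj i nu * Rj j nu := by
  rw [tau, Rj_eq_D, Rj_eq_D, ← map_mul]
  congr 1
  funext l
  show _ = (if l = i then nu else 1) * (if l = j then nu else 1)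
  by_cases hl : l = i
  · subst hl; rw [if_pos (e.refl' l), if_pos rfl, if_neg hij, mul_one]
  · by_cases hlj : l = j
    · subst hlj; rw [if_pos he, if_neg hl, if_pos rfl, one_mul]
    · rw [if_neg (fun h' => (h l h').elim hl hlj), if_neg hl, if_neg hlj, one_mul]

/-- the block involutions, intrinsically -/
def Gd (H : Subgroup (GUq n F)) (z : GUq n F) : Prop :=
  (z ∈ CC H ∧ ∀ y ∈ CC H, y * z = z * y) ∨ (z ≠ 1 ∧ ∃ x ∈ CC H, ∃ y ∈ CC H, z = x * y * x⁻¹ * y⁻¹)

theorem Gd.conj {H : Subgroup (GUq n F)} {z h : GUq n F} (hz : Gd H z) (hh : h ∈ H) : Gd H (h * z * h⁻¹) := by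
  rcases hz with ⟨hz, hc⟩ | ⟨hz, x, hx, y, hy, rfl⟩
  · left
    refine ⟨CC_conj hz hh, fun y hy => ?_⟩
    have h1 := hc (h⁻¹ * y * h⁻¹⁻¹) (CC_conj hy (inv_mem hh))
    calc y * (h * z * h⁻¹) = h * ((h⁻¹ * y * h⁻¹⁻¹) * z) * h⁻¹ := by group
      _ = h * (z * (h⁻¹ * y * h⁻¹⁻¹)) * h⁻¹ := by rw [h1]
      _ = h * z * h⁻¹ * y := by group
  · right
    refine ⟨fun h1 => hz ?_, h * x * h⁻¹, CC_conj hx hh, h * y * h⁻¹, CC_conj hy hh, by group⟩
    have : x * y * x⁻¹ * y⁻¹ = h⁻¹ * (h * (x * y * x⁻¹ * y⁻¹) * h⁻¹) * h := by group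
    rw [this, h1]; group

variable (h2 : (2 : F) ≠ 0) {T : Subgroup (Perm n)} (hT : IsPGroup 2 T) (H : Subgroup (GUq n F))
    (hC : ∀ x ∈ CC H, Shape T x)

include hT in
theorem Gd_tau (i : n) : Gd H (tau F (lnk h2 hT H hC) i) := by
  by_cases h : ∃ j, i ≠ j ∧ lnk h2 hT H hC i j
  · obtain ⟨j, hij, he⟩ := h
    rw [tau_pair hij he]
    · right
      rcases id he with h | ⟨x, hx, h⟩
      · exact absurd h hij
      refine ⟨fun h1 => ?_, x, hx, Rj i nu, t_mem_CC H i, ?_⟩
      · have h3 : (Rj i nu : GUq n F) = Rj j nu := by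
          rw [← t_inv j]
          exact eq_inv_of_mul_eq_one_left h1
        exact hij (t_injective h2 h3)
      · rw [h, t_inv, t_comm]
    · intro l hl
      rcases lnk_two h2 hT H hC he hl with h3 | h3 | h3
      · exact absurd h3 hij
      · exact Or.inl h3.symm
      · exact Or.inr h3.symm
  · push Not at h
    rw [tau_single (fun l hl => by
      by_contra hne
      exact h l (fun e => hne e.symm) hl)]
    left
    refine ⟨t_mem_CC H i, fun y hy => ?_⟩
    obtain ⟨σ, hσ⟩ := (hC y hy).exists_mono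
    have h1 := mono_t hσ i
    by_cases hs : σ i = i
    · rw [hs] at h1
      exact mul_inv_eq_iff_eq_mul.1 h1
    · exact absurd (Or.inr ⟨y, hy, h1⟩) (h (σ i) (fun e => hs e.symm))

include hT in
theorem tau_of_Gd {z : GUq n F} (hz : Gd H z) : ∃ i, z = tau F (lnk h2 hT H hC) i := by
  rcases hz with ⟨hz, hc⟩ | ⟨hz, x, hx, y, hy, rfl⟩
  · rcases hC z hz with ⟨j, rfl⟩ | ⟨c, d, hcd, -, q, -, rfl⟩
    · refine ⟨j, (tau_single fun l hl => ?_).symm⟩
      rcases hl with hl | ⟨x, hx, h⟩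
      · exact hl.symm
      · rw [hc x hx, mul_inv_cancel_right] at h
        exact (t_injective h2 h).symm
    · exfalso
      have h1 := hc _ (t_mem_CC H c)
      have h3 := mono_t (Sw_mono c d q) c
      rw [← h1, mul_inv_cancel_right, swap_apply_left] at h3
      exact hcd (t_injective h2 h3)
  · rcases (hC x hx).comm hT (hC y hy) with h | ⟨c, d, hcd, h, h'⟩
    · exact absurd h hz
    · have he : lnk h2 hT H hC c d := by
        rcases h' with h' | h'
        · exact Or.inr ⟨x, hx, h'⟩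
        · exact Or.inr ⟨y, hy, h'⟩
      refine ⟨c, ?_⟩
      rw [h, tau_pair hcd he]
      intro l hl
      rcases lnk_two h2 hT H hC he hl with h3 | h3 | h3
      · exact absurd h3 hcd
      · exact Or.inl h3.symm
      · exact Or.inr h3.symm

include hT in
/-- `H` normalises the block group -/
theorem conj_blk {h g : GUq n F} (hh : h ∈ H) (hg : g ∈ (Phi (F := F) (lnk h2 hT H hC)).range) :
    h * g * h⁻¹ ∈ (Phi (F := F) (lnk h2 hT H hC)).range := by
  rw [mem_range_Phi] at hg ⊢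
  refine blk_of_comm_tau _ h2 fun i => ?_
  obtain ⟨j, hj⟩ := tau_of_Gd h2 hT H hC ((Gd_tau h2 hT H hC i).conj (inv_mem hh))
  have h1 := comm_tau_of_blk _ hg j
  rw [← hj, inv_inv] at h1
  calc h * g * h⁻¹ * tau F (lnk h2 hT H hC) i = h * (g * (h⁻¹ * tau F (lnk h2 hT H hC) i * h)) * h⁻¹ := by group
    _ = h * ((h⁻¹ * tau F (lnk h2 hT H hC) i * h) * g) * h⁻¹ := by rw [h1, mul_assoc]
    _ = tau F (lnk h2 hT H hC) i * (h * g * h⁻¹) := by group

include hT in
theorem card_part (c : Quotient (lnk h2 hT H hC)) :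
    ∃ k, Nat.card {l : n // (Quotient.mk _ l : Quotient (lnk h2 hT H hC)) = c} = 2 ^ k := by
  classical
  obtain ⟨i, rfl⟩ := Quotient.exists_rep c
  rw [Nat.card_eq_fintype_card]
  by_cases h : ∃ j, i ≠ j ∧ lnk h2 hT H hC i j
  · obtain ⟨j, hij, he⟩ := h
    refine ⟨1, ?_⟩
    rw [Fintype.card_of_subtype {i, j}, Finset.card_pair hij, pow_one]
    intro l
    rw [Finset.mem_insert, Finset.mem_singleton, Quotient.eq]
    constructor
    · rintro (rfl | rfl)
      · exact (lnk h2 hT H hC).refl' _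
      · exact (lnk h2 hT H hC).symm' he
    · intro hl
      rcases lnk_two h2 hT H hC he ((lnk h2 hT H hC).symm' hl) with h3 | h3 | h3
      · exact absurd h3 hij
      · exact Or.inl h3.symm
      · exact Or.inr h3.symm
  · push Not at h
    refine ⟨0, ?_⟩
    rw [Fintype.card_of_subtype {i}, Finset.card_singleton, pow_zero]
    intro l
    rw [Finset.mem_singleton, Quotient.eq]
    constructor
    · rintro rfl
      exact (lnk h2 hT H hC).refl' _
    · intro hl
      by_contra hne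
      exact h l (fun e => hne e.symm) ((lnk h2 hT H hC).symm' hl)

end comb

/-- the group `GU n F` has even order -/
theorem even_GU {F : Type*} [Field F] [Finite F] (h2 : (2 : F) ≠ 0) {n : Type*} [Fintype n] [DecidableEq n] (i : n) :
    Even (Nat.card (GUq n F)) := by
  rw [even_iff_two_dvd, ← orderOf_t h2 i]
  exact orderOf_dvd_natCard _

/-- **the quaternionic form** -/
theorem hp_GU {F : Type} [Field F] [Finite F] {p : ℕ} [Fact p.Prime] [CharP F p] (h2 : (2 : F) ≠ 0)
    (hns : ¬ IsSquare (2 : F)) {n : Type*} [Fintype n] [DecidableEq n] : HP p (GUq n F) := by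
  classical
  have : Fact (Nat.Prime 2) := ⟨Nat.prime_two⟩
  obtain ⟨T⟩ : Nonempty (Sylow 2 (Perm n)) := inferInstance
  obtain ⟨S, hS⟩ := exists_sylow_gen (n := n) h2 hns T
  refine hp_of_sylow S ?_
  intro H hSH hcop hp g hg
  rcases isEmpty_or_nonempty n with hn | ⟨⟨i0⟩⟩
  · have hsub : Subsingleton (GUq n F) := ⟨fun x y => Subtype.ext (Subsingleton.elim _ _)⟩
    refine ⟨1, one_mem _, ?_⟩
    rw [Subsingleton.elim g 1]
  have hSG : SG (Q8 F) (T : Subgroup (Perm n)) ≤ H := hS ▸ hSH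
  have hQ : ∀ a, ∀ w ∈ Q8 F, Rj a w ∈ H := fun a w hw => hSG (Rj_mem _ a hw)
  have hC : ∀ x ∈ CC H, Shape (T : Subgroup (Perm n)) x := by
    rintro x ⟨h, hh, a, hx⟩
    have h1 := t_mem_pCore h2 hp hQ a
    have h3 : (⟨h, hh⟩ * ⟨Rj a nu, hQ a nu nu_mem⟩ * ⟨h, hh⟩⁻¹ : H) ∈ Cfsg.pCore 2 H :=
      (Cfsg.Agent.Lib.Cores.pCore_normal 2).conj_mem _ h1 ⟨h, hh⟩
    have h4 := Cfsg.Agent.Lib.Cores.pCore_le_sylow (S.subtype hSH) h3
    have h5 : x ∈ SG (Q8 F) (T : Subgroup (Perm n)) := by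
      rw [hx, ← hS]
      exact h4
    rw [hx] at h5 ⊢
    rw [Rj, R_conj h (e a) (ip_e_e a) (by rw [ip_act, ip_e_e])] at h5 ⊢
    exact shape_of h2 h5
  obtain ⟨b, hb, s, hs, rfl⟩ := norm_blk h2 T (by rw [← hS]; exact hg) (lnk h2 T.isPGroup' H hC)
  refine pj_mul_of_mem (hSG hs) ?_
  have hnorm : ∀ h ∈ H, ∀ x ∈ (Phi (F := F) (lnk h2 T.isPGroup' H hC)).range,
      h * x * h⁻¹ ∈ (Phi (F := F) (lnk h2 T.isPGroup' H hC)).range :=
    fun h hh x hx => conj_blk h2 T.isPGroup' H hC hh hx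
  refine lemW hcop hnorm hb ?_
  have hHP : HP p (Parts F (lnk h2 T.isPGroup' H hC)) := by
    refine HP.pi (fun c => ?_) (fun c => ?_)
    · obtain ⟨k, hk⟩ := card_part h2 T.isPGroup' H hC c
      rw [Nat.card_eq_fintype_card] at hk
      exact HP.of_po (Cfsg.Agent.H158.PronB.pn_GU h2 hk).pron
    · obtain ⟨i, hi⟩ := Quotient.exists_rep c
      exact even_GU h2 ⟨i, hi⟩
  refine pj_range (Phi (F := F) (lnk h2 T.isPGroup' H hC)) (Phi_injective _) hHP inf_le_right ?_ ?_ ?_ hb
  · rw [Subgroup.inf_relIndex_right]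
    exact Nat.Coprime.coprime_dvd_left (Subgroup.card_dvd_of_le inf_le_left)
      (Nat.Coprime.coprime_dvd_right (relIndex_dvd hnorm) hcop)
  · have h1 : (Rj i0 nu : GUq n F) ∈ H ⊓ (Phi (F := F) (lnk h2 T.isPGroup' H hC)).range := by
      refine ⟨hQ i0 nu nu_mem, (mem_range_Phi _).2 ?_⟩
      intro k l hkl
      exact Rj_mono i0 nu k l (fun h => hkl (by rw [h]; exact Setoid.refl' _ _))
    have h3 := Subgroup.orderOf_dvd_natCard _ h1
    rw [orderOf_t h2 i0] at h3
    exact even_iff_two_dvd.2 h3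
  · exact fun h => hp (h.trans (Subgroup.card_dvd_of_le inf_le_left))

/-- **`PSp_2n(q)`, `2` not a square** -/
theorem hp_psp_of_nonsquare {F : Type} [Field F] [Finite F] {p : ℕ} [Fact p.Prime] [CharP F p] (h2 : (2 : F) ≠ 0)
    (hns : ¬ IsSquare (2 : F)) {n : ℕ} : HP p (Cfsg.PSp n F) := by
  obtain ⟨a, b, hab⟩ := exists_sq_add_sq (-1 : F)
  let π : GUq (Fin n) F →* Cfsg.PSp n F :=
    (QuotientGroup.mk' (Subgroup.center (Matrix.symplecticGroup (Fin n) F))).comp
      (Cfsg.Agent.H158.PronSp.toSp hab)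
  have hπ : Function.Surjective π :=
    (QuotientGroup.mk'_surjective _).comp (Cfsg.Agent.H158.PronSp.toSp_surjective hab h2)
  refine Cfsg.Agent.H128.Hall.of_central' (p := p) Fact.out π hπ ?_ (hp_GU h2 hns)
  intro g hg
  have h1 : Cfsg.Agent.H158.PronSp.toSp hab g ∈ Subgroup.center (Matrix.symplecticGroup (Fin n) F) :=
    (QuotientGroup.eq_one_iff _).1 hg
  rw [Subgroup.mem_center_iff] at h1 ⊢
  intro x
  have h3 := h1 (Cfsg.Agent.H158.PronSp.toSp hab x)
  rw [← map_mul, ← map_mul] at h3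
  apply Subtype.ext
  exact Cfsg.Agent.H158.PronSp.Th_injective hab h2 (congrArg Subtype.val h3)

/-- **row of S2223**: `PSp_2n(q)`, `q ≡ ±3 mod 8` -/
theorem hp_psp {F : Type} [Field F] [Fintype F] {p : ℕ} [Fact p.Prime] [CharP F p] (hp : p ≠ 2) {n : ℕ}
    (h8 : Fintype.card F % 8 = 3 ∨ Fintype.card F % 8 = 5) : HP p (Cfsg.PSp n F) := by
  have h2 : (2 : F) ≠ 0 := by
    intro h
    have h1 : ((2 : ℕ) : F) = 0 := by exact_mod_cast h
    rw [CharP.cast_eq_zero_iff F p] at h1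
    rcases (Nat.dvd_prime Nat.prime_two).1 h1 with h3 | h3
    · exact (Fact.out : p.Prime).one_lt.ne' h3
    · exact hp h3
  refine hp_psp_of_nonsquare h2 ?_
  rw [FiniteField.isSquare_two_iff]
  omega

end Cfsg.Agent.H36.Hall
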